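import Mathlib
import Cfsg.Agent.Lib.Helper14.Inv2.Defs

set_option autoImplicit false

namespace Cfsg.Agent.Lib.Helper74.Inv2

open Cfsg.Agent.Lib.Helper14.Inv2

variable {F : Type*} [Field F]

theorem RD2_entry {V : Type*} [AddCommGroup V] [Module F V] {ι : Type*} [Fintype ι] [DecidableEq ι]
    (b : Module.Basis ι F V) (x : Module.End F V) (j j' : ι) (c : F) (h : x (b j) = c • b j')
    (i : ι) : LinearMap.toMatrix b b x i j = if i = j' then c else 0 := by
  rw [LinearMap.toMatrix_apply, h, map_smul, Module.Basis.repr_self, Finsupp.smul_apply,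
    Finsupp.single_apply]
  by_cases hij : i = j'
  · subst hij; simp
  · rw [if_neg (fun h' => hij h'.symm), if_neg hij]; simp

/-- [RD2] rescaling a normal form -/
theorem exists_rational_basis {V : Type*} [AddCommGroup V] [Module F V] {x : Module.End F V} {z : F}
    {k l : ℕ} {μ : F} {b : Module.Basis ((Fin k × Fin 2) ⊕ Fin l) F V} (h : IsNF x z k l μ b)
    (F₀ : Subfield F) (μ₀ : F) (h0 : μ₀ ≠ 0) (hz : z / μ₀ ^ 2 ∈ F₀) (hμ : l = 0 ∨ μ / μ₀ ∈ F₀) :
    ∃ b' : Module.Basis ((Fin k × Fin 2) ⊕ Fin l) F V,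
      ∀ i j, μ₀⁻¹ * LinearMap.toMatrix b' b' x i j ∈ F₀ := by
  classical
  obtain ⟨h1, h2, h3⟩ := h
  let w : (Fin k × Fin 2) ⊕ Fin l → F := fun i =>
    match i with
    | Sum.inl (_, s) => if s = 0 then 1 else μ₀⁻¹
    | Sum.inr _ => 1
  have hw : ∀ i, IsUnit (w i) := by
    rintro (⟨a, s⟩ | c)
    · by_cases hs : s = 0
      · simp [w, hs]
      · simp [w, hs, h0]
    · simp [w]
  refine ⟨b.isUnitSMul hw, ?_⟩
  have e0 : ∀ a, b.isUnitSMul hw (Sum.inl (a, 0)) = b (Sum.inl (a, 0)) := by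
    intro a; rw [Module.Basis.isUnitSMul_apply]; simp [w]
  have e1 : ∀ a, b.isUnitSMul hw (Sum.inl (a, 1)) = μ₀⁻¹ • b (Sum.inl (a, 1)) := by
    intro a; rw [Module.Basis.isUnitSMul_apply]; simp [w]
  have e2 : ∀ c, b.isUnitSMul hw (Sum.inr c) = b (Sum.inr c) := by
    intro c; rw [Module.Basis.isUnitSMul_apply]; simp [w]
  intro i j
  rcases j with ⟨a, s⟩ | c
  · obtain rfl | rfl : s = 0 ∨ s = 1 := by fin_cases s <;> simp
    · rw [RD2_entry _ x _ (Sum.inl (a, 1)) μ₀ (by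
        rw [e0, e1, h1, smul_smul, mul_inv_cancel₀ h0, one_smul])]
      split_ifs
      · rw [inv_mul_cancel₀ h0]; exact F₀.one_mem
      · rw [mul_zero]; exact F₀.zero_mem
    · rw [RD2_entry _ x _ (Sum.inl (a, 0)) (z / μ₀) (by
        rw [e0, e1, map_smul, h2, smul_smul]; congr 1; field_simp)]
      split_ifs
      · have : μ₀⁻¹ * (z / μ₀) = z / μ₀ ^ 2 := by field_simp
        rw [this]; exact hz
      · rw [mul_zero]; exact F₀.zero_mem
  · rw [RD2_entry _ x _ (Sum.inr c) μ (by rw [e2, h3])]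
    split_ifs
    · rcases hμ with hl | hμ
      · subst hl; exact c.elim0
      · have : μ₀⁻¹ * μ = μ / μ₀ := by field_simp
        rw [this]; exact hμ
    · rw [mul_zero]; exact F₀.zero_mem

end Cfsg.Agent.Lib.Helper74.Inv2
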