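import Mathlib
import Cfsg.Agent.Lib.Helper14.Inv2.Defs
import Cfsg.Agent.Lib.Helper74.Inv2.RD2

set_option autoImplicit false

namespace Cfsg.Agent.Lib.Helper74.Inv2

open Cfsg.Agent.Lib.Helper14.Inv2

variable {F : Type*} [Field F]

/-- [DET] the determinant of a normal form -/
theorem det_of_nf {V : Type*} [AddCommGroup V] [Module F V] {x : Module.End F V} {z : F}
    {k l : ℕ} {μ : F} {b : Module.Basis ((Fin k × Fin 2) ⊕ Fin l) F V} (h : IsNF x z k l μ b) :
    LinearMap.det x = (-z) ^ k * μ ^ l := by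
  classical
  obtain ⟨h1, h2, h3⟩ := h
  have hM : LinearMap.toMatrix b b x = Matrix.fromBlocks
      ((Matrix.blockDiagonal (fun _ : Fin k => !![0, z; 1, 0])).submatrix
        (Equiv.prodComm (Fin k) (Fin 2)) (Equiv.prodComm (Fin k) (Fin 2))) 0 0
      (Matrix.diagonal (fun _ : Fin l => μ)) := by
    ext i j
    rcases j with ⟨a, s⟩ | c
    · obtain rfl | rfl : s = 0 ∨ s = 1 := by fin_cases s <;> simp
      · rw [RD2_entry b x _ (Sum.inl (a, 1)) 1 (by rw [h1, one_smul])]
        rcases i with ⟨a', s'⟩ | c'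
        · obtain rfl | rfl : s' = 0 ∨ s' = 1 := by fin_cases s' <;> simp
          · simp [Matrix.blockDiagonal_apply]
          · simp [Matrix.blockDiagonal_apply]
        · simp
      · rw [RD2_entry b x _ (Sum.inl (a, 0)) z (by rw [h2])]
        rcases i with ⟨a', s'⟩ | c'
        · obtain rfl | rfl : s' = 0 ∨ s' = 1 := by fin_cases s' <;> simp
          · simp [Matrix.blockDiagonal_apply]
          · simp [Matrix.blockDiagonal_apply]
        · simp
    · rw [RD2_entry b x _ (Sum.inr c) μ (by rw [h3])]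
      rcases i with ⟨a', s'⟩ | c'
      · simp
      · simp [Matrix.diagonal_apply]
  rw [← LinearMap.det_toMatrix b x, hM, Matrix.det_fromBlocks_zero₂₁,
    Matrix.det_submatrix_equiv_self, Matrix.det_blockDiagonal, Matrix.det_diagonal]
  simp [Matrix.det_fin_two]

end Cfsg.Agent.Lib.Helper74.Inv2
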