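import Mathlib
import Cfsg.Prelude.Def_GeometricClasses
import Cfsg.Agent.Lib.Helper99.SubfieldGrp

set_option autoImplicit false
open scoped MatrixGroups

namespace Cfsg.Agent.Lib.Helper74.Inv2

variable {F : Type*} [Field F]

/-- [RD1] a basis in which a multiple of `x` is rational over `F₀` conjugates `x` into the subfield group -/
theorem exists_conj_of_basis {n : ℕ} (x : GL (Fin n) F) (F₀ : Subfield F) {ι' : Type} [Fintype ι']
    [DecidableEq ι'] (b : Module.Basis ι' F (Fin n → F)) (c : F) (hc : c ≠ 0)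
    (h : ∀ i j, c * LinearMap.toMatrix b b (Matrix.toLin' (x : Matrix (Fin n) (Fin n) F)) i j ∈ F₀) :
    ∃ Q : GL (Fin n) F, Q⁻¹ * x * Q ∈ Cfsg.Geo.subfieldSubgroup F₀ 1 := by
  classical
  let e : Fin n ≃ ι' := (Pi.basisFun F (Fin n)).indexEquiv b
  let b₁ : Module.Basis (Fin n) F (Fin n → F) := b.reindex e.symm
  let Q : GL (Fin n) F :=
    ⟨(Pi.basisFun F (Fin n)).toMatrix b₁, b₁.toMatrix (Pi.basisFun F (Fin n)),
      Module.Basis.toMatrix_mul_toMatrix_flip _ _, Module.Basis.toMatrix_mul_toMatrix_flip _ _⟩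
  refine ⟨Q, ?_⟩
  rw [Cfsg.Agent.Lib.Helper99.mem_subfieldSubgroup_iff]
  refine ⟨c, hc, fun i j => ?_⟩
  have h1 : ((1⁻¹ * (Q⁻¹ * x * Q) * 1 : GL (Fin n) F) : Matrix (Fin n) (Fin n) F)
      = LinearMap.toMatrix b₁ b₁ (Matrix.toLin' (x : Matrix (Fin n) (Fin n) F)) := by
    rw [← basis_toMatrix_mul_linearMap_toMatrix_mul_basis_toMatrix b₁ (Pi.basisFun F (Fin n)) b₁
      (Pi.basisFun F (Fin n)), LinearMap.toMatrix_eq_toMatrix', LinearMap.toMatrix'_toLin']
    simp only [inv_one, one_mul, mul_one, Units.val_mul]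
    rfl
  rw [h1, Matrix.smul_apply, smul_eq_mul]
  have h2 : LinearMap.toMatrix b₁ b₁ (Matrix.toLin' (x : Matrix (Fin n) (Fin n) F)) i j
      = LinearMap.toMatrix b b (Matrix.toLin' (x : Matrix (Fin n) (Fin n) F)) (e i) (e j) := by
    rw [LinearMap.toMatrix_apply, LinearMap.toMatrix_apply]
    simp [b₁]
  rw [h2]
  exact h _ _

end Cfsg.Agent.Lib.Helper74.Inv2
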