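import Mathlib

set_option autoImplicit false

namespace Cfsg.Agent.Lib.Helper74.Inv2

variable {F : Type*} [Field F]

/-- [SQ] elements of the subfield of index two are squares -/
theorem isSquare_of_mem_subfield [Fintype F] (F₀ : Subfield F)
    (hc : Fintype.card F = Nat.card F₀ ^ 2) (a : F) (ha : a ∈ F₀) : IsSquare a := by
  classical
  by_cases ha0 : a = 0
  · subst ha0; exact IsSquare.zero
  by_cases h2 : ringChar F = 2
  · exact FiniteField.isSquare_of_char_two h2 a
  · rw [FiniteField.isSquare_iff h2 ha0]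
    have : Fintype F₀ := Fintype.ofFinite _
    have hq0 : Nat.card F₀ = Fintype.card F₀ := Nat.card_eq_fintype_card
    have h1 : a ^ (Fintype.card F₀ - 1) = 1 := by
      have h := FiniteField.pow_card_sub_one_eq_one (⟨a, ha⟩ : F₀)
        (fun h => ha0 (congrArg Subtype.val h))
      simpa using congrArg Subtype.val h
    have hodd : Odd (Fintype.card F) := Nat.odd_iff.2 (FiniteField.odd_card_of_char_ne_two h2)
    obtain ⟨q, hq⟩ : ∃ q, q = Fintype.card F₀ := ⟨_, rfl⟩
    rw [← hq] at h1
    rw [hq0, ← hq] at hc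
    have hqodd : Odd q := by
      rw [hc] at hodd
      exact (Nat.odd_pow_iff (by norm_num)).1 hodd
    obtain ⟨m, rfl⟩ := hqodd
    have : Fintype.card F / 2 = (2 * m + 1 - 1) * (m + 1) := by
      rw [hc]
      have : (2 * m + 1) ^ 2 = 2 * ((2 * m + 1 - 1) * (m + 1)) + 1 := by
        simp only [Nat.add_sub_cancel]; ring
      omega
    rw [this, pow_mul, h1, one_pow]

end Cfsg.Agent.Lib.Helper74.Inv2
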